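import Mathlib
import Cfsg.Agent.Lib.Helper70.HH.S3786Defs
import Cfsg.Agent.Lib.Helper63.PLength
import Cfsg.Agent.Lib.Helper63.HallHigman
import Cfsg.Agent.Lib.Helper69.PSolvable

/-!
# S3786, packages (E') `EC` and (M3) `ModB` (helper53)

* `ec`: Theorem EC over an arbitrary field of characteristic `p`, by base change to the
  algebraic closure from Theorem EC over algebraically closed fields (`ECalg`).
* `modB`: from `EC` and `UpperContra`.
-/

set_option autoImplicit false

namespace Cfsg.Agent.Lib.Helper53.HH86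

open Module Cfsg.Agent.Lib.Helper70.HH86

universe u v w

/-- (E') Theorem EC over an arbitrary field of characteristic `p`, from Theorem EC over
algebraically closed fields, by base change to the algebraic closure. -/
theorem ec (hE : ECalg.{u, max v w, w}) : EC.{u, v, w} := by
  intro p _ F _ _ H _ _ V _ _ _ ρ T n hp2 hsol hcore hinj hn hT hnz
  classical
  have : CharP (AlgebraicClosure F) p :=
    charP_of_injective_algebraMap (algebraMap F (AlgebraicClosure F)).injective p
  have hbc : Function.Injective (Module.End.baseChangeHom F (AlgebraicClosure F) V) :=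
    LinearMap.baseChangeHom_injective F V (AlgebraicClosure F)
  let ρ' : Representation (AlgebraicClosure F) H (TensorProduct F (AlgebraicClosure F) V) :=
    ((Module.End.baseChangeHom F (AlgebraicClosure F) V : Module.End F V →ₐ[F] _) :
      Module.End F V →* _).comp ρ
  have hρapp : ∀ g : H, ρ' g = Module.End.baseChangeHom F (AlgebraicClosure F) V (ρ g) :=
    fun g => rfl
  have hρinj : Function.Injective ρ' := by
    intro a b hab
    rw [hρapp, hρapp] at hab
    exact hinj (hbc hab)
  have hsub : ∀ g : H, ρ' g - 1 =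
      Module.End.baseChangeHom F (AlgebraicClosure F) V (ρ g - 1) := by
    intro g
    rw [hρapp, map_sub, map_one]
  refine hE (p := p) (F := AlgebraicClosure F) (H := H)
    (V := TensorProduct F (AlgebraicClosure F) V) ρ' T n hp2 hsol hcore hρinj hn hT ?_
  intro t ht
  rw [hsub, ← map_pow, hnz t ht, map_zero]

/-- An element with vanishing norm `(ρ h - 1) ^ (p ^ n - 1) = 0` under a faithful representation
in characteristic `p` has order dividing `p ^ n`. -/
theorem pow_eq_one_of_norm_zero {p : ℕ} [Fact p.Prime] {F : Type w} [Field F] [CharP F p]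
    {H : Type u} [Group H] {V : Type v} [AddCommGroup V] [Module F V]
    (ρ : Representation F H V) (hinj : Function.Injective ρ) (n : ℕ) (h : H)
    (hz : (ρ h - 1) ^ (p ^ n - 1) = 0) : h ^ p ^ n = 1 := by
  rcases subsingleton_or_nontrivial V with hV | hV
  · apply hinj
    apply LinearMap.ext
    intro v
    exact Subsingleton.elim _ _
  · haveI : CharP (Module.End F V) p :=
      charP_of_injective_algebraMap (algebraMap F (Module.End F V)).injective p
    haveI : ExpChar (Module.End F V) p := ExpChar.prime Fact.out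
    have hpos : 0 < p ^ n := pow_pos (Fact.out : p.Prime).pos n
    have h1 : (ρ h - 1) ^ (p ^ n) = 0 := by
      have : p ^ n = (p ^ n - 1) + 1 := by omega
      rw [this, pow_succ, hz, zero_mul]
    rw [sub_pow_expChar_pow_of_commute p n (Commute.one_right _), one_pow, sub_eq_zero] at h1
    apply hinj
    rw [map_pow, h1, map_one]

/-- (M3) from `EC` and `UpperContra`. -/
theorem modB (hE : EC.{u, v, w}) (hU : UpperContra.{u}) : ModB.{u, v, w} := by
  intro p _ F _ _ H _ _ V _ _ _ ρ n hp2 hsol hcore hinj hn hnz h hh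
  classical
  by_contra hnot
  obtain ⟨k, hk⟩ := hh
  -- a Sylow `p`-subgroup containing `h`
  have hzp : IsPGroup p (Subgroup.zpowers h) := by
    rintro ⟨g, hg⟩
    obtain ⟨m, rfl⟩ := Subgroup.mem_zpowers_iff.mp hg
    refine ⟨k, Subtype.ext ?_⟩
    change (h ^ m) ^ p ^ k = 1
    rw [← zpow_natCast, ← zpow_mul, mul_comm, zpow_mul, zpow_natCast, hk, one_zpow]
  obtain ⟨T, hT⟩ := hzp.exists_le_sylow
  have hhT : h ∈ (T : Subgroup H) := hT (Subgroup.mem_zpowers h)
  have hTp : ∀ t ∈ (T : Subgroup H), ∃ k : ℕ, t ^ p ^ k = 1 := by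
    intro t ht
    obtain ⟨k, hk⟩ := T.isPGroup' ⟨t, ht⟩
    exact ⟨k, by simpa using congrArg Subtype.val hk⟩
  have hcomm := hE (p := p) ρ (T : Subgroup H) n hp2 hsol hcore hinj hn T.isPGroup'
    (fun t ht => hnz t (hTp t ht))
  have hpn : h ^ p ^ n = 1 := pow_eq_one_of_norm_zero ρ hinj n h (hnz h ⟨k, hk⟩)
  have hπs : Function.Surjective (QuotientGroup.mk' (Cfsg.pPrimeCore p H)) :=
    QuotientGroup.mk'_surjective _
  refine hU (p := p) (G := H ⧸ Cfsg.pPrimeCore p H) hp2
    (Cfsg.Agent.Lib.Helper69.isPSolvable_of_surj p (QuotientGroup.mk' (Cfsg.pPrimeCore p H))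
      hπs hsol)
    (Cfsg.Agent.Lib.Helper63.pPrimeCore_quotient_eq_bot p H)
    (QuotientGroup.mk h) n hn ?_ ?_ ?_
  · rw [← QuotientGroup.mk_pow, hpn]; rfl
  · rw [← QuotientGroup.mk_pow]; exact hnot
  · intro u hu
    have h1 := Cfsg.Agent.Lib.Helper63.pCore_le_sylow' p (T.mapSurjective hπs)
    rw [Sylow.coe_mapSurjective] at h1
    obtain ⟨u₀, hu₀, rfl⟩ := h1 hu
    have h2 := hcomm h hhT (u₀ * h) (Subgroup.mul_mem _ hu₀ hhT)
    have h3 := congrArg (QuotientGroup.mk' (Cfsg.pPrimeCore p H)) h2
    simpa only [map_mul, map_pow, QuotientGroup.mk'_apply] using h3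

end Cfsg.Agent.Lib.Helper53.HH86
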